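import Cfsg.Agent.H33.RCSuz.Simple
import Cfsg.Agent.KFacts.SuzFix
import Cfsg.Agent.H812.SuzSeven

/-!
# `C(ρ)` in the Suzuki group: `J = ⟨a, b, c, d, e⟩` is simple of order 604800 (helper33)

* `simpleJ`, `perfJ`, `cardJ`, `fixJ`, `oddJ` (the elements of odd prime order fixed by `ρ` lie in `J`).
-/

set_option autoImplicit false
set_option maxRecDepth 100000
set_option exponentiation.threshold 4000

namespace Cfsg.Agent.H33.RCSuz

open Subgroup Cfsg
open Cfsg.Spor (Suz)
open Cfsg.Agent.Lib.PermNet Cfsg.Agent.Lib.PermNetOrbit Cfsg.Agent.SporadicRecognition.SuzPhi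
  Cfsg.Agent.SporadicRecognition.SuzBound Cfsg.Agent.SporadicRecognition.SuzOrder
  Cfsg.Agent.SuzThree.Nets Cfsg.Agent.SuzThree.Basic Cfsg.Agent.SuzThree.Elts
  Cfsg.Agent.SuzThree.CentA Cfsg.Agent.SuzThree.CentB Cfsg.Agent.SuzThree.CentCard
  Cfsg.Agent.SuzThree.QZero Cfsg.Agent.KFacts.SuzRho Cfsg.Agent.KFacts.SuzFix
open Cfsg.Agent.H812.SuzLoc (x7 x7_mem order_x7 w7)

/-- the group `J₂` -/
noncomputable def J : Subgroup Suz := closure SJ

theorem J_eq0 : J = cl ge := rfl

theorem J_eq1 : J = stabL φ [1575, 0] := J_eq0.trans J_eq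

theorem cardJ : Nat.card J = 604800 := by rw [J_eq1]; exact card_J

theorem mem_J {g : Suz} : g ∈ J ↔ φ g 1575 = 1575 ∧ φ g 0 = 0 := by
  rw [J_eq1]
  constructor
  · intro h
    exact ⟨h _ (by simp), h _ (by simp)⟩
  · rintro ⟨h1, h2⟩ q hq
    simp only [List.mem_cons, List.not_mem_nil, or_false] at hq
    rcases hq with rfl | rfl
    · exact h1
    · exact h2

theorem fixJ : ∀ y ∈ J, rho y = y := fun y hy => rho_J (J_eq1 ▸ hy)

theorem oddJ (y : Suz) (hy : rho y = y) (p : ℕ) (hp : p.Prime) (hp2 : p ≠ 2) (hyp : y ^ p = 1) : y ∈ J := by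
  have key : φ y 0 = 0 := by
    rcases zero_of_rho hy with h | h
    · exact h
    · exfalso
      have h1 : φ (y * y) 0 = 0 := by
        have h2 : rho (y * y) = y * y := by rw [map_mul, hy]
        rcases zero_of_rho h2 with h3 | h3
        · exact h3
        · exfalso
          rw [map_mul, Equiv.Perm.mul_apply, h] at h3
          have := (φ y).injective (h3.trans h.symm)
          norm_num at this
      have h4 : ∀ k : ℕ, φ ((y * y) ^ k) 0 = 0 := by
        intro k
        induction k with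
        | zero => rw [pow_zero, map_one]; rfl
        | succ k ih => rw [pow_succ, map_mul, Equiv.Perm.mul_apply, h1, ih]
      obtain ⟨k, hk⟩ := hp.odd_of_ne_two hp2
      have h5 : y = (y * y) ^ (k + 1) := by
        rw [← pow_two, ← pow_mul, mul_add, mul_one, show 2 * k + 2 = (2 * k + 1) + 1 by ring, ← hk, pow_succ, hyp, one_mul]
      have h6 := h4 (k + 1)
      rw [← h5, h] at h6
      norm_num at h6
  rw [mem_J]
  refine ⟨?_, key⟩
  have h7 := rho_fix key
  rwa [hy] at h7

/-! ### The element of order 7 -/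

abbrev C7 : Subgroup Suz := centralizer {x7}

theorem card_C7 : Nat.card C7 = 84 := by
  have h := (H812.SuzSeven.main_card x7_mem order_x7).1
  rwa [H812.Transport.centralizer_zpowers] at h

/-- words commuting with `x7` -/
def gA : List (List Suz.Gen) := [[.e], w0]

theorem gA_mem {w : List Suz.Gen} (hw : w ∈ gA) : el w ∈ C7 := by
  rw [mem_centralizer_singleton_iff]
  show el w * el w7 = el w7 * el w
  rw [← el_append, ← el_append]
  simp only [gA, List.mem_cons, List.not_mem_nil, or_false] at hw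
  rcases hw with rfl | rfl
  · exact eq_of_reps (Rep.el _) (Rep.el _) (by decide +kernel)
  · exact eq_of_reps (Rep.el _) (Rep.el _) (by decide +kernel)

theorem stab7 : Nat.card (stabL (φS C7) [273, 195]) ≤ 7 := by
  have hA : 4 * Nat.card (stabL (φS C7) [195]) ≤ Nat.card (stabL (φS C7) []) :=
    stabL_step_of_check (φS C7) (k := 11) (ws := gA.map wd) [] 195 4 3 (wsokS _)
      (himgS fun w hw => gA_mem hw) (by decide +kernel) (by decide +kernel) (by decide +kernel)
  have hB : 3 * Nat.card (stabL (φS C7) [273, 195]) ≤ Nat.card (stabL (φS C7) [195]) :=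
    stabL_step_of_check (φS C7) (k := 11) (ws := [w0].map wd) [195] 273 3 3 (wsokS _)
      (himgS fun w hw => gA_mem (by
        simp only [List.mem_cons, List.not_mem_nil, or_false] at hw
        subst hw
        simp [gA])) (by decide +kernel) (by decide +kernel) (by decide +kernel)
  rw [stabL_nil, card_C7] at hA
  omega

/-- the conjugating word -/
def cw : List Suz.Gen := [.f, .b, .c, .d, .c, .b, .f, .g, .b, .c, .a, .b, .f, .e, .d, .c, .b, .g, .b, .a]

noncomputable def u7 : Suz := el cw * x7 * (el cw)⁻¹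

theorem cw_pt : φ (el cw) 195 = 0 ∧ φ (el cw) 273 = 1575 :=
  ⟨(Rep.el cw).pt (by decide +kernel), (Rep.el cw).pt (by decide +kernel)⟩

theorem x7_pt : φ x7 195 = 195 ∧ φ x7 273 = 273 :=
  ⟨(Rep.el w7).pt (by decide +kernel), (Rep.el w7).pt (by decide +kernel)⟩

theorem order_conj {G : Type*} [Group G] (c x : G) : orderOf (c * x * c⁻¹) = orderOf x := by
  rw [← MulAut.conj_apply, MulEquiv.orderOf_eq]

theorem order_u7 : orderOf u7 = 7 := by rw [u7, order_conj, order_x7]

theorem φ3 (a b c : Suz) (p : ℕ) : φ (a * b * c) p = φ a (φ b (φ c p)) := by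
  rw [map_mul, map_mul, Equiv.Perm.mul_apply, Equiv.Perm.mul_apply]

theorem cw_inv : φ (el cw)⁻¹ 0 = 195 ∧ φ (el cw)⁻¹ 1575 = 273 :=
  ⟨by rw [map_inv, Equiv.Perm.inv_eq_iff_eq, cw_pt.1], by rw [map_inv, Equiv.Perm.inv_eq_iff_eq, cw_pt.2]⟩

theorem u7_mem : u7 ∈ J := by
  rw [mem_J, u7, φ3, φ3, cw_inv.1, cw_inv.2, x7_pt.1, x7_pt.2, cw_pt.1, cw_pt.2]
  exact ⟨Eq.refl _, Eq.refl _⟩

theorem x7_of {h : Suz} (h1 : h * x7 = x7 * h) (h2 : φ h 195 = 195) (h3 : φ h 273 = 273) : h ∈ zpowers x7 := by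
  have hfin := CTwoTab.Suz.finSuz
  have hx : x7 ∈ C7 := mem_centralizer_singleton_iff.2 rfl
  have hle : zpowers (⟨x7, hx⟩ : C7) ≤ stabL (φS C7) [273, 195] := by
    rw [zpowers_le]
    intro q hq
    simp only [List.mem_cons, List.not_mem_nil, or_false] at hq
    rcases hq with rfl | rfl
    · exact x7_pt.2
    · exact x7_pt.1
  have heq : zpowers (⟨x7, hx⟩ : C7) = stabL (φS C7) [273, 195] := by
    apply eq_of_le_of_card_ge hle
    rw [Nat.card_zpowers, orderOf_mk, order_x7]
    exact stab7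
  have hm : (⟨h, mem_centralizer_singleton_iff.2 h1⟩ : C7) ∈ stabL (φS C7) [273, 195] := by
    intro q hq
    simp only [List.mem_cons, List.not_mem_nil, or_false] at hq
    rcases hq with rfl | rfl
    · exact h3
    · exact h2
  rw [← heq] at hm
  obtain ⟨k, hk⟩ := mem_zpowers_iff.1 hm
  exact mem_zpowers_iff.2 ⟨k, congrArg Subtype.val hk⟩

theorem centJ {g : Suz} (hg : g ∈ J) (h : g * u7 = u7 * g) : g ∈ zpowers u7 := by
  obtain ⟨g1, g2⟩ := mem_J.1 hg
  have h1 : (el cw)⁻¹ * g * el cw ∈ zpowers x7 := by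
    apply x7_of
    · have e : (el cw)⁻¹ * (g * u7) * el cw = (el cw)⁻¹ * (u7 * g) * el cw := by rw [h]
      rw [u7] at e
      calc (el cw)⁻¹ * g * el cw * x7 = (el cw)⁻¹ * (g * (el cw * x7 * (el cw)⁻¹)) * el cw := by group
        _ = (el cw)⁻¹ * (el cw * x7 * (el cw)⁻¹ * g) * el cw := e
        _ = x7 * ((el cw)⁻¹ * g * el cw) := by group
    · rw [φ3, cw_pt.1, g2, cw_inv.1]
    · rw [φ3, cw_pt.2, g1, cw_inv.2]
  obtain ⟨k, hk⟩ := mem_zpowers_iff.1 h1
  refine mem_zpowers_iff.2 ⟨k, ?_⟩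
  rw [u7, conj_zpow, hk]
  group

/-! ### The odd orbit -/

def h34 : List Suz.Gen := h3 ++ h3 ++ h3 ++ h3

theorem gc_mem {w : List Suz.Gen} (hw : w ∈ gc) : el w ∈ J := by
  rw [J_eq0]
  simp only [gc, List.mem_cons, List.not_mem_nil, or_false] at hw
  rcases hw with rfl | rfl | rfl
  · exact el_mem_cl (by simp [ge])
  · exact el_mem_cl (by simp [ge])
  · exact h3_mem_J

theorem h34_mem : el h34 ∈ J := by
  have h := gc_mem (w := h3) (by simp [gc])
  rw [h34, el_append, el_append, el_append]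
  exact mul_mem (mul_mem (mul_mem h h) h) h

theorem chain1 : 315 * Nat.card (stabL (φS J) [1]) ≤ 604800 := by
  have h := stabL_step_of_check (φS J) (k := 11) (ws := ge.map wd) [] 1 315 8 (wsokS _)
      (himgS fun w hw => el_mem_cl hw) (by decide +kernel) (by decide +kernel) (by decide +kernel)
  rwa [stabL_nil, cardJ] at h

theorem chain2 : 160 * Nat.card (stabL (φS J) [11, 1]) ≤ Nat.card (stabL (φS J) [1]) :=
  stabL_step_of_check (φS J) (k := 11) (ws := gc.map wd) [1] 11 160 7 (wsokS _)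
      (himgS fun w hw => gc_mem hw) (by decide +kernel) (by decide +kernel) (by decide +kernel)

theorem chain3 : 12 * Nat.card (stabL (φS J) [45, 11, 1]) ≤ Nat.card (stabL (φS J) [11, 1]) :=
  stabL_step_of_check (φS J) (k := 11) (ws := [h34, [.e]].map wd) [11, 1] 45 12 5 (wsokS _)
      (himgS fun w hw => by
        simp only [List.mem_cons, List.not_mem_nil, or_false] at hw
        rcases hw with rfl | rfl
        · exact h34_mem
        · exact gc_mem (by simp [gc])) (by decide +kernel) (by decide +kernel) (by decide +kernel)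

theorem card_stab1' : Nat.card (stabL (φS J) [1]) = 1920 := by
  have h1 := chain1
  have h2 := chain2
  have h3 := chain3
  have h4 : 0 < Nat.card (stabL (φS J) [45, 11, 1]) := by
    have := CTwoTab.Suz.finSuz
    exact Nat.card_pos
  omega

theorem card_stab3' : Nat.card (stabL (φS J) [45, 11, 1]) = 1 := by
  have h1 := chain1
  have h2 := chain2
  have h3 := chain3
  have h4 : 0 < Nat.card (stabL (φS J) [45, 11, 1]) := by
    have := CTwoTab.Suz.finSuz
    exact Nat.card_pos
  omega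

theorem wpt {w : List Suz.Gen} (hw : ∀ x ∈ w, [x] ∈ ge) {p : ℕ} (h : mv (wd w) 1 p = true) :
    ∃ j : J, φS J j 1 = p :=
  ⟨⟨el w, el_mem_of hw⟩, (Rep.el w).pt h⟩

theorem mem_stab1 (g : J) : g ∈ stabL (φS J) [1] ↔ φS J g 1 = 1 := by
  constructor
  · intro h
    exact h 1 (by simp)
  · intro h q hq
    rw [List.mem_singleton.1 hq]
    exact h

theorem index_stab1 : (stabL (φS J) [1]).index = 315 := by
  have h1 := (stabL (φS J) [1]).card_mul_index
  rw [card_stab1', cardJ] at h1
  omega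

/-- `J` has no nontrivial normal 2-subgroup -/
theorem no_two (K : Subgroup J) [hK : K.Normal] (h2 : IsPGroup 2 K) : K = ⊥ := by
  have hfin := CTwoTab.Suz.finSuz
  have hall := fix_orbit (φS J) 1 _ mem_stab1 (by rw [index_stab1]; norm_num) K h2
  rw [eq_bot_iff]
  intro k hk
  have hk3 : k ∈ stabL (φS J) [45, 11, 1] := by
    intro q hq
    simp only [List.mem_cons, List.not_mem_nil, or_false] at hq
    rcases hq with rfl | rfl | rfl
    · obtain ⟨i, hi⟩ := wpt (w := [.d, .e, .c, .d, .c, .b]) (p := 45) (by decide) (by decide +kernel)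
      have h3 := hall k hk i
      rwa [hi] at h3
    · obtain ⟨i, hi⟩ := wpt (w := [.b, .c, .a, .b]) (p := 11) (by decide) (by decide +kernel)
      have h3 := hall k hk i
      rwa [hi] at h3
    · have h3 := hall k hk 1
      rwa [MonoidHom.map_one, Equiv.Perm.one_apply] at h3
  rw [(card_eq_one.1 card_stab3' : stabL (φS J) [45, 11, 1] = ⊥)] at hk3
  exact hk3

theorem perfJ : commutator J = ⊤ := by
  have h := perfect_SJ
  have h1 : (commutator J).map J.subtype = J := by
    rw [commutator_def, map_commutator, ← MonoidHom.range_eq_map, range_subtype]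
    exact h
  rw [eq_top_iff]
  intro x _
  have h2 : (x : Suz) ∈ (commutator J).map J.subtype := by rw [h1]; exact x.2
  obtain ⟨y, hy, hyx⟩ := h2
  rwa [← Subtype.ext hyx]

theorem simpleJ : IsSimpleGroup J := by
  have hfin := CTwoTab.Suz.finSuz
  have hu : orderOf (⟨u7, u7_mem⟩ : J) = 7 := by rw [orderOf_mk, order_u7]
  have hnt : Nontrivial J := by
    rw [← Finite.one_lt_card_iff_nontrivial, cardJ]; norm_num
  have hc : ∀ c : J, c * ⟨u7, u7_mem⟩ = ⟨u7, u7_mem⟩ * c → c ∈ zpowers (⟨u7, u7_mem⟩ : J) := by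
    intro c h
    obtain ⟨k, hk⟩ := mem_zpowers_iff.1 (centJ c.2 (congrArg Subtype.val h))
    exact mem_zpowers_iff.2 ⟨k, Subtype.ext hk⟩
  refine ⟨fun K hK => ?_⟩
  by_cases hKt : K = ⊤
  · exact Or.inr hKt
  left
  apply no_two K
  -- `K` is a 2-group
  have hpr : ∀ q : ℕ, q.Prime → q ∣ Nat.card K → q = 2 := by
    intro q hq hqK
    obtain ⟨a, ha, h1, h2⟩ := exists_mod (by norm_num : Nat.Prime 7) hu hc (by rw [cardJ]; norm_num) perfJ K hKt hq hqK
    rw [cardJ] at h1
    by_contra hq2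
    have h3 : q ∣ 2 ^ 7 * 3 ^ 3 * 5 ^ 2 * 7 := by
      have : (604800 : ℕ) = 2 ^ 7 * 3 ^ 3 * 5 ^ 2 * 7 := by norm_num
      rw [← this]
      exact (dvd_pow_self q ha.ne').trans h1
    have h4 : q = 3 ∨ q = 5 ∨ q = 7 := by
      rcases (hq.dvd_mul).1 h3 with h | h
      · rcases (hq.dvd_mul).1 h with h | h
        · rcases (hq.dvd_mul).1 h with h | h
          · exact absurd ((Nat.prime_dvd_prime_iff_eq hq Nat.prime_two).1 (hq.dvd_of_dvd_pow h)) hq2
          · exact Or.inl ((Nat.prime_dvd_prime_iff_eq hq Nat.prime_three).1 (hq.dvd_of_dvd_pow h))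
        · exact Or.inr (Or.inl ((Nat.prime_dvd_prime_iff_eq hq Nat.prime_five).1 (hq.dvd_of_dvd_pow h)))
      · exact Or.inr (Or.inr ((Nat.prime_dvd_prime_iff_eq hq (by norm_num)).1 h))
    have h5 : a < 4 := by
      by_contra h
      push Not at h
      have h6 := (pow_dvd_pow q h).trans h1
      rcases h4 with rfl | rfl | rfl <;> norm_num at h6
    rcases h4 with rfl | rfl | rfl <;> interval_cases a <;> revert h1 h2 <;> decide
  have h3 : Nat.card K = 2 ^ (Nat.card K).primeFactorsList.length :=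
    Nat.eq_prime_pow_of_unique_prime_dvd Nat.card_pos.ne' fun {d} hd hdK => hpr d hd hdK
  exact IsPGroup.of_card h3

end Cfsg.Agent.H33.RCSuz
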