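import Cfsg.Agent.H33.RCSuz.Rule
import Cfsg.Agent.H33.RCSuz.JTwo
import Cfsg.Agent.H33.RCSuz.MTw
import Cfsg.Agent.H916.RG.Suz.Inner
import Cfsg.Prelude.Def_Classification2

/-!
# S3509, row `Suz` (helper33; inner half by helper916)

* `outer_dead` : no cover with a member outside `N ≅ Suz`;
* `rc_suz` : the row.
-/

set_option autoImplicit false
set_option maxRecDepth 100000
open Cfsg

namespace Cfsg.Agent.H33.RCSuz

open MulAction Subgroup Cfsg.Agent.H106.RC Cfsg.Agent.H873.RG Cfsg.Agent.H867.RC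
open Cfsg.Spor (Suz)
open Cfsg.Agent.KFacts.SuzRho Cfsg.Agent.SuzThree.Basic Cfsg.Agent.SuzThree.CentA Cfsg.Agent.KFacts.SuzInvol
  Cfsg.Agent.SporadicRecognition.SuzOrder

theorem ncomm_of {A : Type*} [Group A] [Nontrivial A] (h : commutator A = ⊤) : ¬ IsMulCommutative A := by
  intro hc
  have h1 : commutator A = ⊥ := by
    rw [eq_bot_iff, _root_.commutator_def, commutator_le]
    intro a _ b _
    rw [mem_bot, commutatorElement_eq_one_iff_mul_comm]
    exact hc.is_comm.comm a b
  rw [h] at h1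
  exact top_ne_bot h1

theorem cz : el [.f, .g] * z0 = z0 * el [.f, .g] := by
  show el [.f, .g] * el [.a] = el [.a] * el [.f, .g]
  rw [← el_append, ← el_append]
  exact eq_of_reps (Rep.el _) (Rep.el _) (by decide +kernel)

theorem z0_ne1 : z0 ≠ 1 := KFacts.SuzLarge.large.z_ne

theorem fct_st (s : Bool) : Fct (st s) := by
  have hfin := CTwoTab.Suz.finSuz
  cases s
  · have hs := simpleJ
    have hnt : Nontrivial J := hs.toNontrivial
    refine ⟨J, z0, el [.f, .g], hs, ncomm_of perfJ, not_alt cardJ (by norm_num) (by norm_num), ?_, fixJ, oddJ,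
      z0_ne1, subset_closure ⟨_, by simp, rfl⟩, cz, st_p false⟩
    intro h
    have h1 := cardJ
    rw [h, card_top, card_Suz] at h1
    norm_num at h1
  · have hs := simpleY
    have hnt : Nontrivial Y := hs.toNontrivial
    refine ⟨Y, z0, el [.f, .g], hs, ncomm_of perfY, ?_, ?_, fixY, oddY,
      z0_ne1, subset_closure ⟨_, by simp, rfl⟩, cz, st_p true⟩
    · rcases cardY with h | h
      · exact not_alt h (by norm_num) (by norm_num)
      · exact not_alt h (by norm_num) (by norm_num)
    · intro h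
      have h1 := cardY
      rw [h, card_top, card_Suz] at h1
      norm_num at h1

theorem fct {al : MulAut Suz} (hal : al * al = 1) (hout : al ∉ (MulAut.conj (G := Suz)).range) : Fct al :=
  outer_ind (Q := Fct) ⟨fun _ g h => h.conj g, fct_st⟩ hal hout

variable {G : Type} [Group G] [Finite G] {Ω : Type} [Nonempty Ω] [MulAction G Ω] {N : Subgroup G}
  {ι : Type} [Finite ι] {x : ι → G} {r : ι → ℕ}

omit [Finite G] [Nonempty Ω] in
/-- the automorphism induced on `Suz` -/
theorem exists_al (hE : Env G Ω N) (e : N ≃* Suz) (g : G) : ∃ al : MulAut Suz,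
    (∀ s : Suz, g * (e.symm s : G) * g⁻¹ = (e.symm (al s) : G)) ∧
      (al ∈ (MulAut.conj (G := Suz)).range → g ∈ N) ∧ ∀ k : ℕ, g ^ k = 1 → al ^ k = 1 := by
  have hNn := hE.norm
  have key : ∀ (h : G) (s : Suz), h * (e.symm s : G) * h⁻¹ =
      (e.symm ((MulAut.congr e) (MulAut.conjNormal h) s) : G) := by
    intro h s
    simp [MulAut.congr, MulAut.conjNormal_apply]
  refine ⟨(MulAut.congr e) (MulAut.conjNormal g), key g, ?_, ?_⟩
  · rintro ⟨t, ht⟩
    have h1 : ((e.symm t : N) : G)⁻¹ * g ∈ centralizer (N : Set G) := by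
      rw [mem_centralizer_iff]
      intro n hn
      have h2 := key g (e ⟨n, hn⟩)
      rw [← ht, MulAut.conj_apply, map_mul, map_mul, map_inv, e.symm_apply_apply] at h2
      push_cast at h2
      calc n * (((e.symm t : N) : G)⁻¹ * g) = ((e.symm t : N) : G)⁻¹ * ((e.symm t : N) * n * ((e.symm t : N) : G)⁻¹) * g := by
            group
        _ = ((e.symm t : N) : G)⁻¹ * (g * n * g⁻¹) * g := by rw [h2]
        _ = ((e.symm t : N) : G)⁻¹ * g * n := by group
    rw [hE.cent, mem_bot, inv_mul_eq_one] at h1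
    rw [← h1]
    exact (e.symm t).2
  · intro k hk
    rw [← map_pow, ← map_pow, hk, map_one, map_one]

/-- **the outer half** -/
theorem outer_dead (hE : Env G Ω N) (e : N ≃* Suz) (hIH : IHx (Nat.card Suz)) (hx : PF x r) (hc : Cov Ω x) (i : ι)
    (hi : x i ∉ N) : False := by
  have hfin := CTwoTab.Suz.finSuz
  have hsq : ∀ g : G, g * g ∈ N := by
    intro g
    obtain ⟨al, h1, h2, -⟩ := exists_al hE e g
    obtain ⟨al2, h1', h2', -⟩ := exists_al hE e (g * g)
    apply h2'
    have h3 : al2 = al * al := by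
      ext s
      apply e.symm.injective
      apply Subtype.ext
      rw [← h1', MulAut.mul_apply, ← h1, ← h1]
      group
    rw [h3]
    rcases KFacts.SuzOut.index_eq with h | h
    · rw [index_eq_one.1 h]
      trivial
    · exact mul_self_mem_of_index_two h al
  have hodd : ∀ j, r j ≠ 2 → x j ∈ N := by
    intro j hj
    obtain ⟨k, hk⟩ := (hx.prime j).odd_of_ne_two hj
    have h5 : x j = (x j * x j) ^ (k + 1) := by
      rw [← pow_two, ← pow_mul, mul_add, mul_one, show 2 * k + 2 = (2 * k + 1) + 1 by ring, ← hk, pow_succ, hx.pow,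
        one_mul]
    rw [h5]
    exact pow_mem (hsq _) _
  have hr : r i = 2 := by
    by_contra h
    exact hi (hodd i h)
  obtain ⟨al, h1, h2, h3⟩ := exists_al hE e (x i)
  refine outer_rule hE e hIH hx hc hr (fun j hj => hodd j fun h => hj (hx.inj (h.trans hr.symm))) h1 (fct ?_ fun h => hi (h2 h))
  rw [← pow_two]
  exact h3 2 (hr ▸ hx.pow i)

/-- **Row `Suz` of S3509.** -/
theorem rc_suz {T : Type} [Group T] [Finite T] (h : Spor.IsoSuz T) (hIH : IHx (Nat.card T)) : RC T := by
  obtain ⟨f⟩ := h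
  have hs : IsSimpleGroup T := isSimple_cgr0 f.symm SporadicRecognition.SuzOrder.simple
  have hn : ¬ IsMulCommutative T := by
    intro hc
    have h1 : ∀ a b : Suz, a * b = b * a := by
      intro a b
      apply f.symm.injective
      rw [map_mul, map_mul]
      exact hc.is_comm.comm _ _
    exact z0_ne1 (center_triv (h1 z0))
  refine rc_of_noCov hs hn ?_
  intro G _ _ Ω _ _ _ N hE e ι _ x r hx hc _
  have e' : N ≃* Suz := e.trans f
  have hIH' : IHx (Nat.card Suz) := by rwa [← Nat.card_congr f.toEquiv]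
  by_cases hN : ∀ i, x i ∈ N
  · exact H916.RG.Suz.inner_dead hE e' hx hc hN
  · push Not at hN
    obtain ⟨i, hi⟩ := hN
    exact outer_dead hE e' hIH' hx hc i hi

end Cfsg.Agent.H33.RCSuz
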